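import Mathlib
import Cfsg.Agent.Helper7.SecondMain

/-!
# Green's theorem on defect groups as Sylow intersections (helper7)

* `tdiff`: the difference operator `h ↦ (y ↦ h(t⁻¹y) - h(y))`; `li_tdiff_iterate`: it is nilpotent
  modulo the local ideal when `t` is a `p`-element.
* `exists_invariant`: for a central idempotent `E` (mod the local ideal) which is not zero and a
  `p`-subgroup `P₁`, there is a nonzero `h ≡ E * h` which is left `P₁`-invariant mod the ideal.
* `exists_coset_sum_not_li`: some coset sum `∑_{a ∈ P₁} E(y a)` is not in the local ideal.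
-/

set_option autoImplicit false

namespace Cfsg.Agent.Helper7

open Cfsg Cfsg.Agent.Helper25 Cfsg.Agent.Helper2

universe u

variable {G : Type u} [Group G] {p : ℕ} {M : Ideal AlgInt}

/-- Left translation as a linear map on functions. -/
noncomputable def tmap (t : G) : Module.End ℂ (G → ℂ) := LinearMap.funLeft ℂ ℂ (fun y => t⁻¹ * y)

theorem tmap_apply (t : G) (h : G → ℂ) (y : G) : tmap t h y = h (t⁻¹ * y) := rfl

theorem tmap_pow_apply (t : G) (j : ℕ) (h : G → ℂ) (y : G) :
    (tmap t ^ j) h y = h ((t⁻¹) ^ j * y) := by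
  induction j generalizing h with
  | zero => simp
  | succ j ih => rw [pow_succ, Module.End.mul_apply, ih, tmap_apply, pow_succ', mul_assoc]

/-- The difference operator `h ↦ (y ↦ h(t⁻¹y) - h(y))`. -/
noncomputable def tdiff (t : G) (h : G → ℂ) : G → ℂ := fun y => h (t⁻¹ * y) - h y

theorem tdiff_eq (t : G) : tdiff t = ⇑(tmap t - 1) := by
  funext h y
  rfl

theorem neg_one_pow_end_apply (k : ℕ) (h : G → ℂ) :
    ((-1 : Module.End ℂ (G → ℂ)) ^ k) h = ((-1 : ℂ) ^ k) • h := by
  induction k with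
  | zero => simp
  | succ k ih =>
    rw [pow_succ, Module.End.mul_apply, pow_succ, LinearMap.neg_apply, Module.End.one_apply,
      map_neg, ih]
    simp

theorem tdiff_iterate_eq (t : G) (m : ℕ) (h : G → ℂ) (y : G) :
    (tdiff t)^[m] h y = ∑ j ∈ Finset.range (m + 1),
      (-1 : ℂ) ^ (m - j) * (m.choose j : ℂ) * h ((t⁻¹) ^ j * y) := by
  rw [tdiff_eq, ← Module.End.pow_apply, sub_eq_add_neg,
    ((Commute.one_right (tmap t)).neg_right).add_pow, LinearMap.sum_apply, Finset.sum_apply]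
  apply Finset.sum_congr rfl
  intro j _
  have e1 : ((-1 : Module.End ℂ (G → ℂ)) ^ (m - j) * (m.choose j : Module.End ℂ (G → ℂ))) h
      = ((-1 : ℂ) ^ (m - j) * (m.choose j : ℂ)) • h := by
    rw [Module.End.mul_apply, Module.End.natCast_apply, neg_one_pow_end_apply, mul_smul,
      Nat.cast_smul_eq_nsmul]
  rw [mul_assoc, Module.End.mul_apply, e1, map_smul, Pi.smul_apply, tmap_pow_apply, smul_eq_mul]

/-- The difference operator is nilpotent modulo the local ideal for a `p`-element. -/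
theorem li_tdiff_iterate (hM : IsPModular p M) (t : G) (r : ℕ) (ht : t ^ (p ^ r) = 1)
    (h : G → ℂ) (hlr : ∀ y, MemLocalRing M (h y)) (y : G) :
    MemLocalIdeal M ((tdiff t)^[p ^ r] h y) := by
  have hp := hM.1
  rw [tdiff_iterate_eq]
  obtain ⟨m', hm'⟩ : ∃ m', p ^ r = m' + 1 := ⟨p ^ r - 1, by have := pow_pos hp.pos r; omega⟩
  rw [hm', Finset.sum_range_succ, Finset.sum_range_succ']
  have hmid : MemLocalIdeal M (∑ j ∈ Finset.range m',
      (-1 : ℂ) ^ (m' + 1 - (j + 1)) * ((m' + 1).choose (j + 1) : ℂ) * h ((t⁻¹) ^ (j + 1) * y)) := by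
    apply li_sum hM
    intro j hj
    have hj' := Finset.mem_range.mp hj
    have hdvd : p ∣ (m' + 1).choose (j + 1) := by
      rw [← hm']
      exact hp.dvd_choose_pow (by omega) (by omega)
    apply li_mul_lr hM _ (hlr _)
    apply lr_mul_li hM
    · rcases neg_one_pow_eq_or ℂ (m' + 1 - (j + 1)) with h1 | h1
      · rw [h1]; exact lr_one hM
      · rw [h1]; exact lr_neg (lr_one hM)
    · exact (li_natCast_iff hM _).mpr hdvd
  have hends : MemLocalIdeal M ((-1 : ℂ) ^ (m' + 1 - 0) * ((m' + 1).choose 0 : ℂ)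
      * h ((t⁻¹) ^ 0 * y)
      + (-1 : ℂ) ^ (m' + 1 - (m' + 1)) * ((m' + 1).choose (m' + 1) : ℂ)
        * h ((t⁻¹) ^ (m' + 1) * y)) := by
    have e1 : (t⁻¹) ^ (m' + 1) = 1 := by rw [← hm', inv_pow, ht, inv_one]
    rw [e1, pow_zero, one_mul, Nat.choose_zero_right, Nat.choose_self, Nat.sub_self, pow_zero,
      Nat.sub_zero, Nat.cast_one, mul_one, one_mul]
    rcases neg_one_pow_eq_or ℂ (m' + 1) with h1 | h1
    · have heven : Even (m' + 1) := (neg_one_pow_eq_one_iff_even (by norm_num)).mp h1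
      have h2 : 2 ∣ p ^ r := by rw [hm']; exact heven.two_dvd
      have h3 : 2 ∣ p := Nat.Prime.dvd_of_dvd_pow Nat.prime_two h2
      have h4 : p = 2 := ((Nat.prime_dvd_prime_iff_eq Nat.prime_two hp).mp h3).symm
      have h5 : MemLocalIdeal M ((2 : ℂ)) := by
        have := li_prime hM
        rw [h4] at this
        exact_mod_cast this
      rw [h1]
      have e2 : (1 : ℂ) * h y + 1 * h y = 2 * h y := by ring
      rw [e2]
      exact li_mul_lr hM h5 (hlr y)
    · rw [h1]
      have e2 : (-1 : ℂ) * h y + 1 * h y = 0 := by ring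
      rw [e2]
      exact li_zero hM
  have e : ∑ j ∈ Finset.range m',
      (-1 : ℂ) ^ (m' + 1 - (j + 1)) * ((m' + 1).choose (j + 1) : ℂ) * h ((t⁻¹) ^ (j + 1) * y)
      + (-1 : ℂ) ^ (m' + 1 - 0) * ((m' + 1).choose 0 : ℂ) * h ((t⁻¹) ^ 0 * y)
      + (-1 : ℂ) ^ (m' + 1 - (m' + 1)) * ((m' + 1).choose (m' + 1) : ℂ)
        * h ((t⁻¹) ^ (m' + 1) * y)
      = ∑ j ∈ Finset.range m',
      (-1 : ℂ) ^ (m' + 1 - (j + 1)) * ((m' + 1).choose (j + 1) : ℂ) * h ((t⁻¹) ^ (j + 1) * y)
      + ((-1 : ℂ) ^ (m' + 1 - 0) * ((m' + 1).choose 0 : ℂ) * h ((t⁻¹) ^ 0 * y)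
      + (-1 : ℂ) ^ (m' + 1 - (m' + 1)) * ((m' + 1).choose (m' + 1) : ℂ)
        * h ((t⁻¹) ^ (m' + 1) * y)) := by ring
  rw [e]
  exact li_add hM hmid hends

theorem lr_tdiff_iterate (hM : IsPModular p M) (t : G) {h : G → ℂ}
    (hlr : ∀ y, MemLocalRing M (h y)) (k : ℕ) : ∀ y, MemLocalRing M ((tdiff t)^[k] h y) := by
  induction k with
  | zero => exact hlr
  | succ k ih =>
    intro y
    rw [Function.iterate_succ_apply']
    exact lr_sub hM (ih _) (ih _)

theorem conv_tdiff [Fintype G] (E : G → ℂ) (hEcl : ∀ x z : G, E (z * x * z⁻¹) = E x) (t : G)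
    (h : G → ℂ) : conv E (tdiff t h) = tdiff t (conv E h) := by
  funext y
  show ∑ x : G, E x * (h (t⁻¹ * (x⁻¹ * y)) - h (x⁻¹ * y))
    = (∑ x : G, E x * h (x⁻¹ * (t⁻¹ * y))) - ∑ x : G, E x * h (x⁻¹ * y)
  simp only [mul_sub, Finset.sum_sub_distrib]
  congr 1
  apply Fintype.sum_equiv (MulAut.conj t⁻¹).toEquiv
  intro x
  have e1 : (MulAut.conj t⁻¹).toEquiv x = t⁻¹ * x * t⁻¹⁻¹ := rfl
  rw [e1, hEcl]
  congr 2
  group

theorem li_conv_tdiff_iterate [Fintype G] (hM : IsPModular p M) (E : G → ℂ)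
    (hEcl : ∀ x z : G, E (z * x * z⁻¹) = E x) (t : G) {h : G → ℂ}
    (hid : ∀ y, MemLocalIdeal M (conv E h y - h y)) (k : ℕ) :
    ∀ y, MemLocalIdeal M (conv E ((tdiff t)^[k] h) y - (tdiff t)^[k] h y) := by
  induction k with
  | zero => exact hid
  | succ k ih =>
    intro y
    rw [Function.iterate_succ_apply', conv_tdiff E hEcl]
    show MemLocalIdeal M ((conv E ((tdiff t)^[k] h) (t⁻¹ * y) - conv E ((tdiff t)^[k] h) y)
      - ((tdiff t)^[k] h (t⁻¹ * y) - (tdiff t)^[k] h y))
    have e : (conv E ((tdiff t)^[k] h) (t⁻¹ * y) - conv E ((tdiff t)^[k] h) y)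
        - ((tdiff t)^[k] h (t⁻¹ * y) - (tdiff t)^[k] h y)
        = (conv E ((tdiff t)^[k] h) (t⁻¹ * y) - (tdiff t)^[k] h (t⁻¹ * y))
          - (conv E ((tdiff t)^[k] h) y - (tdiff t)^[k] h y) := by ring
    rw [e]
    exact li_sub hM (ih _) (ih _)

/-- The subgroup of the elements whose left translation fixes `h` modulo the local ideal. -/
def invSub (hM : IsPModular p M) (h : G → ℂ) : Subgroup G where
  carrier := {a | ∀ y, MemLocalIdeal M (h (a * y) - h y)}
  mul_mem' := by
    intro a b ha hb y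
    have e : h (a * b * y) - h y = (h (a * (b * y)) - h (b * y)) + (h (b * y) - h y) := by
      rw [mul_assoc]; ring
    rw [e]
    exact li_add hM (ha _) (hb _)
  one_mem' := by
    intro y
    rw [one_mul, sub_self]
    exact li_zero hM
  inv_mem' := by
    intro a ha y
    have e : h (a⁻¹ * y) - h y = -(h (a * (a⁻¹ * y)) - h (a⁻¹ * y)) := by
      rw [mul_inv_cancel_left]; ring
    rw [e]
    exact li_neg (ha _)

theorem mem_invSub_iff (hM : IsPModular p M) (h : G → ℂ) (a : G) :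
    a ∈ invSub hM h ↔ ∀ y, MemLocalIdeal M (h (a * y) - h y) := Iff.rfl

theorem mem_invSub_tdiff (hM : IsPModular p M) (t a : G) {h : G → ℂ} (ha : a ∈ invSub hM h)
    (ha' : t⁻¹ * a * t ∈ invSub hM h) : a ∈ invSub hM (tdiff t h) := by
  intro y
  show MemLocalIdeal M ((h (t⁻¹ * (a * y)) - h (a * y)) - (h (t⁻¹ * y) - h y))
  have e : (h (t⁻¹ * (a * y)) - h (a * y)) - (h (t⁻¹ * y) - h y)
      = (h (t⁻¹ * a * t * (t⁻¹ * y)) - h (t⁻¹ * y)) - (h (a * y) - h y) := by
    have e1 : t⁻¹ * a * t * (t⁻¹ * y) = t⁻¹ * (a * y) := by group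
    rw [e1]; ring
  rw [e]
  exact li_sub hM (ha' _) (ha _)

/-- For a central idempotent `E` modulo the local ideal which is not zero, and a `p`-subgroup
`P₁`, there is a nonzero `h ≡ E * h` invariant under left translation by `P₁`. -/
theorem exists_invariant [Fintype G] (hM : IsPModular p M) (E : G → ℂ)
    (hEcl : ∀ x z : G, E (z * x * z⁻¹) = E x) (hElr : ∀ x, MemLocalRing M (E x))
    (hEid : ∀ y, MemLocalIdeal M (conv E E y - E y)) (hEne : ∃ y, ¬ MemLocalIdeal M (E y))
    (P₁ : Subgroup G) (hP₁ : IsPGroup p P₁) :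
    ∃ h : G → ℂ, (∀ y, MemLocalRing M (h y)) ∧ (∃ y, ¬ MemLocalIdeal M (h y)) ∧
      (∀ y, MemLocalIdeal M (conv E h y - h y)) ∧ P₁ ≤ invSub hM h := by
  classical
  haveI : Fact p.Prime := ⟨hM.1⟩
  have key : ∀ n : ℕ, ∀ h : G → ℂ, (∀ y, MemLocalRing M (h y)) →
      (∃ y, ¬ MemLocalIdeal M (h y)) → (∀ y, MemLocalIdeal M (conv E h y - h y)) →
      Nat.card P₁ - Nat.card (invSub hM h ⊓ P₁ : Subgroup G) = n →
      ∃ h' : G → ℂ, (∀ y, MemLocalRing M (h' y)) ∧ (∃ y, ¬ MemLocalIdeal M (h' y)) ∧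
        (∀ y, MemLocalIdeal M (conv E h' y - h' y)) ∧ P₁ ≤ invSub hM h' := by
    intro n
    induction n using Nat.strong_induction_on with
    | _ n ih =>
      intro h hlr hne hid hn
      by_cases hle : P₁ ≤ invSub hM h
      · exact ⟨h, hlr, hne, hid, hle⟩
      · obtain ⟨Q, hQ⟩ : ∃ Q : Subgroup G, Q = invSub hM h ⊓ P₁ := ⟨_, rfl⟩
        have hQP : Q ≤ P₁ := by rw [hQ]; exact inf_le_right
        have hQne : Q.subgroupOf P₁ < ⊤ := by
          rw [lt_top_iff_ne_top]
          intro htop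
          apply hle
          intro a ha
          have h1 : (⟨a, ha⟩ : P₁) ∈ Q.subgroupOf P₁ := by rw [htop]; trivial
          have h2 : a ∈ Q := Subgroup.mem_subgroupOf.mp h1
          rw [hQ] at h2
          exact h2.1
        haveI : Group.IsNilpotent P₁ := hP₁.isNilpotent
        have hnc := Group.normalizerCondition_of_isNilpotent (G := P₁) (Q.subgroupOf P₁) hQne
        obtain ⟨t', ht'N, ht'Q⟩ := SetLike.exists_of_lt hnc
        have htP : (t' : G) ∈ P₁ := t'.2
        have htQ : (t' : G) ∉ Q := fun hh => ht'Q (Subgroup.mem_subgroupOf.mpr hh)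
        have hnorm : ∀ a ∈ Q, (t' : G)⁻¹ * a * (t' : G) ∈ Q := by
          intro a ha
          have h1 := (Subgroup.mem_normalizer_iff.mp ht'N) (t'⁻¹ * ⟨a, hQP ha⟩ * t')
          have h2 : t' * (t'⁻¹ * ⟨a, hQP ha⟩ * t') * t'⁻¹ = (⟨a, hQP ha⟩ : P₁) := by group
          rw [h2] at h1
          exact Subgroup.mem_subgroupOf.mp (h1.mpr (Subgroup.mem_subgroupOf.mpr ha))
        obtain ⟨r, hr⟩ : ∃ r : ℕ, (t' : G) ^ (p ^ r) = 1 := by
          obtain ⟨r, hr⟩ := hP₁ t'
          exact ⟨r, by have := congrArg Subtype.val hr; simpa using this⟩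
        have hex : ∃ k, ∀ y, MemLocalIdeal M ((tdiff (t' : G))^[k] h y) :=
          ⟨p ^ r, li_tdiff_iterate hM _ r hr h hlr⟩
        obtain ⟨k₁, hk₁, hmin⟩ : ∃ k₁, (∀ y, MemLocalIdeal M ((tdiff (t' : G))^[k₁] h y)) ∧
            ∀ j < k₁, ¬ ∀ y, MemLocalIdeal M ((tdiff (t' : G))^[j] h y) :=
          ⟨Nat.find hex, Nat.find_spec hex, fun j hj => Nat.find_min hex hj⟩
        have hk₁0 : k₁ ≠ 0 := by
          rintro rfl
          obtain ⟨y, hy⟩ := hne
          exact hy (hk₁ y)
        obtain ⟨k, rfl⟩ : ∃ k, k₁ = k + 1 := ⟨k₁ - 1, by omega⟩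
        have hk := hmin k (Nat.lt_succ_self k)
        push Not at hk
        obtain ⟨h', hh'⟩ : ∃ h' : G → ℂ, h' = (tdiff (t' : G))^[k] h := ⟨_, rfl⟩
        have h'lr : ∀ y, MemLocalRing M (h' y) := by
          rw [hh']; exact lr_tdiff_iterate hM (t' : G) hlr k
        have h'id : ∀ y, MemLocalIdeal M (conv E h' y - h' y) := by
          rw [hh']; exact li_conv_tdiff_iterate hM E hEcl (t' : G) hid k
        have h'ne : ∃ y, ¬ MemLocalIdeal M (h' y) := by
          rw [hh']; exact hk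
        have hQinv : ∀ j : ℕ, ∀ a ∈ Q, a ∈ invSub hM ((tdiff (t' : G))^[j] h) := by
          intro j
          induction j with
          | zero =>
            intro a ha
            rw [hQ] at ha
            exact ha.1
          | succ j ihj =>
            intro a ha
            rw [Function.iterate_succ_apply']
            exact mem_invSub_tdiff hM _ a (ihj a ha) (ihj _ (hnorm a ha))
        have htinv : (t' : G) ∈ invSub hM h' := by
          have h1 : (t' : G)⁻¹ ∈ invSub hM h' := by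
            intro y
            have h2 := hk₁ y
            rw [Function.iterate_succ_apply', ← hh'] at h2
            exact h2
          simpa using (invSub hM h').inv_mem h1
        have hle' : Q ≤ invSub hM h' ⊓ P₁ := by
          refine le_inf (fun a ha => ?_) hQP
          rw [hh']
          exact hQinv k a ha
        have hlt : Nat.card Q < Nat.card (invSub hM h' ⊓ P₁ : Subgroup G) := by
          refine lt_of_le_of_ne (Subgroup.card_le_of_le hle') ?_
          intro hcard
          have h3 := Subgroup.eq_of_le_of_card_ge hle' hcard.ge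
          apply htQ
          rw [h3]
          exact ⟨htinv, htP⟩
        have hbound : Nat.card (invSub hM h' ⊓ P₁ : Subgroup G) ≤ Nat.card P₁ :=
          Subgroup.card_le_of_le inf_le_right
        rw [hQ] at hlt
        exact ih (Nat.card P₁ - Nat.card (invSub hM h' ⊓ P₁ : Subgroup G)) (by omega) h' h'lr
          h'ne h'id rfl
  exact key _ E hElr hEne hEid rfl

/-- For a nonzero central idempotent `E` (mod the local ideal) and a `p`-subgroup `P₁`, some
coset sum `∑_{a ∈ P₁} E(y a)` lies outside the local ideal. -/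
theorem exists_coset_sum_not_li [Fintype G] (hM : IsPModular p M) (E : G → ℂ)
    (hEcl : ∀ x z : G, E (z * x * z⁻¹) = E x) (hElr : ∀ x, MemLocalRing M (E x))
    (hEid : ∀ y, MemLocalIdeal M (conv E E y - E y)) (hEne : ∃ y, ¬ MemLocalIdeal M (E y))
    (P₁ : Subgroup G) (hP₁ : IsPGroup p P₁) [Fintype P₁] :
    ∃ y : G, ¬ MemLocalIdeal M (∑ a : P₁, E (y * (a : G))) := by
  classical
  by_contra hcon
  push Not at hcon
  obtain ⟨h, hlr, ⟨y₀, hy₀⟩, hid, hinv⟩ := exists_invariant hM E hEcl hElr hEid hEne P₁ hP₁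
  apply hy₀
  have h1 : MemLocalIdeal M (conv E h y₀) := by
    obtain ⟨S, hS, -⟩ := Subgroup.exists_isComplement_left P₁ (1 : G)
    haveI : Fintype S := Fintype.ofFinite S
    have hbij : Function.Bijective (fun x : S × P₁ => (x.1 : G) * (x.2 : G)) := hS
    show MemLocalIdeal M (∑ x : G, E x * h (x⁻¹ * y₀))
    rw [← hbij.sum_comp (fun x => E x * h (x⁻¹ * y₀)), Fintype.sum_prod_type]
    apply li_sum hM
    intro s _
    show MemLocalIdeal M (∑ a : P₁, E ((s : G) * (a : G)) * h (((s : G) * (a : G))⁻¹ * y₀))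
    have e : ∑ a : P₁, E ((s : G) * (a : G)) * h (((s : G) * (a : G))⁻¹ * y₀)
        = ∑ a : P₁, E ((s : G) * (a : G))
            * (h ((a : G)⁻¹ * ((s : G)⁻¹ * y₀)) - h ((s : G)⁻¹ * y₀))
          + h ((s : G)⁻¹ * y₀) * ∑ a : P₁, E ((s : G) * (a : G)) := by
      rw [Finset.mul_sum, ← Finset.sum_add_distrib]
      apply Finset.sum_congr rfl
      intro a _
      rw [mul_inv_rev, mul_assoc]
      ring
    rw [e]
    apply li_add hM
    · apply li_sum hM
      intro a _
      exact lr_mul_li hM (hElr _) (hinv (P₁.inv_mem a.2) _)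
    · exact lr_mul_li hM (hlr _) (hcon _)
  have h2 := li_sub hM h1 (hid y₀)
  rwa [sub_sub_cancel] at h2

/-- If a coset sum `∑_{a ∈ P₁} E(y a)` of a class function lies outside the local ideal, there
is `x` in the support of `E` (mod the ideal) with `P₁ ∩ x P₁ x⁻¹ ≤ C(x)`. -/
theorem exists_sylow_inter [Fintype G] (hM : IsPModular p M) (E : G → ℂ)
    (hEcl : ∀ x z : G, E (z * x * z⁻¹) = E x) (hElr : ∀ x, MemLocalRing M (E x))
    (P₁ : Subgroup G) (hP₁ : IsPGroup p P₁) [Fintype P₁] (y : G)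
    (hy : ¬ MemLocalIdeal M (∑ a : P₁, E (y * (a : G)))) :
    ∃ x : G, ¬ MemLocalIdeal M (E x) ∧ ∀ u ∈ P₁, x⁻¹ * u * x ∈ P₁ → u * x = x * u := by
  classical
  let R : Subgroup G :=
    { carrier := {u | u ∈ P₁ ∧ y⁻¹ * u * y ∈ P₁}
      mul_mem' := by
        rintro a b ⟨ha, ha'⟩ ⟨hb, hb'⟩
        refine ⟨P₁.mul_mem ha hb, ?_⟩
        have e : y⁻¹ * (a * b) * y = (y⁻¹ * a * y) * (y⁻¹ * b * y) := by group
        rw [e]
        exact P₁.mul_mem ha' hb'
      one_mem' := ⟨P₁.one_mem, by simp [P₁.one_mem]⟩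
      inv_mem' := by
        rintro a ⟨ha, ha'⟩
        refine ⟨P₁.inv_mem ha, ?_⟩
        have e : y⁻¹ * a⁻¹ * y = (y⁻¹ * a * y)⁻¹ := by group
        rw [e]
        exact P₁.inv_mem ha' }
  have hRP : R ≤ P₁ := fun u hu => hu.1
  have hR : IsPGroup p R := hP₁.to_le hRP
  by_contra hcon
  apply hy
  have e1 : ∑ a : P₁, E (y * (a : G)) = ∑ z : G, if y⁻¹ * z ∈ P₁ then E z else 0 := by
    rw [← Finset.sum_filter]
    apply Finset.sum_bij (fun (a : P₁) _ => y * (a : G))
    · intro a _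
      rw [Finset.mem_filter]
      exact ⟨Finset.mem_univ _, by rw [inv_mul_cancel_left]; exact a.2⟩
    · intro a _ b _ hab
      exact Subtype.ext (mul_left_cancel hab)
    · intro z hz
      exact ⟨⟨y⁻¹ * z, (Finset.mem_filter.mp hz).2⟩, Finset.mem_univ _, by simp⟩
    · intro a _
      rfl
  rw [e1]
  letI : MulAction R G := MulAction.compHom G ((MulAut.conj : G →* MulAut G).comp R.subtype)
  have hsmul : ∀ (q : R) (z : G), q • z = (q : G) * z * (q : G)⁻¹ := fun q z => rfl
  have hfixli : ∀ z : G, y⁻¹ * z ∈ P₁ → (∀ q : R, q • z = z) → MemLocalIdeal M (E z) := by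
    intro z hz hfix
    by_contra hE
    apply hcon
    refine ⟨z, hE, fun u hu hu' => ?_⟩
    have huR : u ∈ R := by
      refine ⟨hu, ?_⟩
      have e : y⁻¹ * u * y = (y⁻¹ * z) * (z⁻¹ * u * z) * (y⁻¹ * z)⁻¹ := by group
      rw [e]
      exact P₁.mul_mem (P₁.mul_mem hz hu') (P₁.inv_mem hz)
    have h1 := hfix ⟨u, huR⟩
    rw [hsmul] at h1
    exact mul_inv_eq_iff_eq_mul.mp h1
  have e2 : ∑ z : G, (if y⁻¹ * z ∈ P₁ then E z else 0)
      = ∑ z : G, (if (∀ q : R, q • z = z) then 0 else (if y⁻¹ * z ∈ P₁ then E z else 0))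
        + ∑ z : G, (if (∀ q : R, q • z = z) then (if y⁻¹ * z ∈ P₁ then E z else 0) else 0) := by
    rw [← Finset.sum_add_distrib]
    apply Finset.sum_congr rfl
    intro z _
    by_cases hz : ∀ q : R, q • z = z
    · rw [if_pos hz, if_pos hz, zero_add]
    · rw [if_neg hz, if_neg hz, add_zero]
  rw [e2]
  apply li_add hM
  · apply li_sum_of_pgroup_action hM hR
      (fun z : G => if (∀ q : R, q • z = z) then 0 else (if y⁻¹ * z ∈ P₁ then E z else 0))
    · intro q z
      have hfixiff : (∀ q' : R, q' • (q • z) = q • z) ↔ (∀ q' : R, q' • z = z) := by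
        constructor
        · intro hh q'
          have h0 : q • z = z := ((inv_smul_smul q z).symm.trans (hh q⁻¹)).symm
          have h1 := hh q'
          rw [h0] at h1
          exact h1
        · intro hh q'
          rw [hh q, hh q']
      have hmemiff : y⁻¹ * (q • z) ∈ P₁ ↔ y⁻¹ * z ∈ P₁ := by
        rw [hsmul]
        constructor
        · intro hh
          have e : y⁻¹ * z = (y⁻¹ * (q : G) * y)⁻¹ * (y⁻¹ * ((q : G) * z * (q : G)⁻¹)) * (q : G) := by
            group
          rw [e]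
          exact P₁.mul_mem (P₁.mul_mem (P₁.inv_mem q.2.2) hh) q.2.1
        · intro hh
          have e : y⁻¹ * ((q : G) * z * (q : G)⁻¹) = (y⁻¹ * (q : G) * y) * (y⁻¹ * z) * (q : G)⁻¹ := by
            group
          rw [e]
          exact P₁.mul_mem (P₁.mul_mem q.2.2 hh) (P₁.inv_mem q.2.1)
      have hEq : E (q • z) = E z := by
        rw [hsmul]
        exact hEcl z q
      simp only [hfixiff, hmemiff, hEq]
    · intro z
      beta_reduce
      split_ifs
      · exact lr_zero hM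
      · exact hElr z
      · exact lr_zero hM
    · intro z hz
      beta_reduce
      rw [if_pos hz]
  · apply li_sum hM
    intro z _
    split_ifs with h1 h2
    · exact hfixli z h2 h1
    · exact li_zero hM
    · exact li_zero hM

/-- **Green's theorem**: a defect group `D` contained in the Sylow `p`-subgroup `P` is of the
form `P ∩ x P x⁻¹` for a `p`-regular `x` with `D` a Sylow `p`-subgroup of `C(x)`. -/
theorem green_theorem [Finite G] [Fact p.Prime] (hM : IsPModular p M)
    (B : Set (IrrCharacter G)) (hB : IsPBlock M B) (D : Subgroup G)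
    (hD : IsDefectGroup p M B D) (P : Sylow p G) (hDP : D ≤ P) :
    ∃ x : G, ¬ p ∣ orderOf x ∧ (∃ S : Sylow p (Subgroup.centralizer ({x} : Set G)),
      (S : Subgroup (Subgroup.centralizer ({x} : Set G))).map
        (Subgroup.centralizer ({x} : Set G)).subtype = D) ∧
      (P : Subgroup G) ⊓ (P : Subgroup G).map (MulAut.conj x).toMonoidHom = D := by
  classical
  haveI := Fintype.ofFinite G
  obtain ⟨g₀, hg₀, P₀, hDeq⟩ := hD
  have hDp : IsPGroup p D := P.isPGroup'.to_le hDP
  obtain ⟨N, hN⟩ : ∃ N : Subgroup G, N = Subgroup.normalizer (D : Set G) := ⟨_, rfl⟩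
  haveI : Fintype N := Fintype.ofFinite N
  have hCN : Subgroup.centralizer (D : Set G) ≤ N := by
    rw [hN]
    exact Subgroup.centralizer_le_normalizer _
  have hNN : N ≤ Subgroup.normalizer (D : Set G) := hN.le
  obtain ⟨E, hE⟩ : ∃ E : N → ℂ, E = resC D N (blockCoeff B) := ⟨_, rfl⟩
  have hEcl : ∀ x z : N, E (z * x * z⁻¹) = E x := by
    rw [hE]
    exact fun x z => resC_classFun D N hNN (blockCoeff_conj B) x z
  have hElr : ∀ x, MemLocalRing M (E x) := by
    rw [hE]
    exact resC_lr hM D N (blockCoeff_lr hM hB)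
  have hEid : ∀ y, MemLocalIdeal M (conv E E y - E y) := by
    intro y
    have h1 := li_conv_resC hM D N hDp hCN (blockCoeff_conj B) (blockCoeff_conj B)
      (blockCoeff_lr hM hB) (blockCoeff_lr hM hB) y
    rw [conv_blockCoeff_self] at h1
    have h2 := li_neg h1
    rw [neg_sub] at h2
    rw [hE]
    exact h2
  have hg₀D : g₀ ∈ Subgroup.centralizer (D : Set G) := by
    rw [Subgroup.mem_centralizer_iff]
    intro d hd
    rw [hDeq] at hd
    obtain ⟨d', -, rfl⟩ := Subgroup.mem_map.mp hd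
    exact Subgroup.mem_centralizer_singleton_iff.mp d'.2
  have hEval : ∀ x : N, (x : G) ∈ Subgroup.centralizer (D : Set G) → E x = blockCoeff B x := by
    intro x hx
    rw [hE]
    unfold resC
    rw [if_pos hx]
  have hEval0 : ∀ x : N, (x : G) ∉ Subgroup.centralizer (D : Set G) → E x = 0 := by
    intro x hx
    rw [hE]
    unfold resC
    rw [if_neg hx]
  have hEne : ∃ y, ¬ MemLocalIdeal M (E y) :=
    ⟨⟨g₀, hCN hg₀D⟩, by rw [hEval _ hg₀D]; exact hg₀.2.1⟩
  obtain ⟨P₁, hP₁def⟩ : ∃ P₁ : Subgroup N, P₁ = (P : Subgroup G).subgroupOf N := ⟨_, rfl⟩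
  have hP₁ : IsPGroup p P₁ := by
    rw [hP₁def]
    exact P.isPGroup'.comap_subtype
  haveI : Fintype P₁ := Fintype.ofFinite P₁
  obtain ⟨y, hy⟩ := exists_coset_sum_not_li hM E hEcl hElr hEid hEne P₁ hP₁
  obtain ⟨x, hxE, hxP⟩ := exists_sylow_inter hM E hEcl hElr P₁ hP₁ y hy
  have hxD : (x : G) ∈ Subgroup.centralizer (D : Set G) := by
    by_contra hh
    exact hxE (by rw [hEval0 x hh]; exact li_zero hM)
  have hxB : ¬ MemLocalIdeal M (blockCoeff B (x : G)) := by
    rwa [hEval x hxD] at hxE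
  have hmax : ∀ S : Subgroup G, IsPGroup p S →
      S ≤ Subgroup.centralizer ({(x : G)} : Set G) → D ≤ S → S = D := by
    intro S hS hSC hDS
    obtain ⟨z, hz⟩ := minmax_a hM hB g₀ hg₀.2.2 P₀ (x : G) hxB S hS hSC
    rw [← hDeq] at hz
    have h1 : Nat.card S ≤ Nat.card D := by
      calc Nat.card S ≤ Nat.card (D.map (MulAut.conj z).toMonoidHom) := Subgroup.card_le_of_le hz
        _ = Nat.card D := Subgroup.card_map_of_injective (MulAut.conj z).injective
    exact (Subgroup.eq_of_le_of_card_ge hDS h1).symm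
  have hDx : D ≤ Subgroup.centralizer ({(x : G)} : Set G) := by
    intro d hd
    rw [Subgroup.mem_centralizer_singleton_iff]
    exact Subgroup.mem_centralizer_iff.mp hxD d hd
  have hconjD : ∀ d ∈ D, (x : G) * d * (x : G)⁻¹ = d := by
    intro d hd
    have h1 := Subgroup.mem_centralizer_iff.mp hxD d hd
    rw [mul_inv_eq_iff_eq_mul]
    exact h1.symm
  refine ⟨(x : G), ?_, ?_, ?_⟩
  · intro hdvd
    exact hxB (by rw [blockCoeff_eq_zero_of_singular hM hB (x : G) hdvd]; exact li_zero hM)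
  · obtain ⟨Q, hQ⟩ := exists_sylow_ge p (Subgroup.centralizer ({(x : G)} : Set G)) D hDp hDx
    refine ⟨Q, ?_⟩
    apply hmax _ (Q.isPGroup'.map _) ?_ hQ
    intro w hw
    obtain ⟨w', -, rfl⟩ := Subgroup.mem_map.mp hw
    exact w'.2
  · have hDR : D ≤ (P : Subgroup G) ⊓ (P : Subgroup G).map (MulAut.conj (x : G)).toMonoidHom :=
      le_inf hDP (fun d hd => Subgroup.mem_map.mpr ⟨d, hDP hd, hconjD d hd⟩)
    apply le_antisymm _ hDR
    by_contra hRD
    obtain ⟨R, hRdef⟩ : ∃ R : Subgroup G,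
        R = (P : Subgroup G) ⊓ (P : Subgroup G).map (MulAut.conj (x : G)).toMonoidHom := ⟨_, rfl⟩
    rw [← hRdef] at hRD hDR
    have hRP : R ≤ (P : Subgroup G) := by rw [hRdef]; exact inf_le_left
    have hRp : IsPGroup p R := P.isPGroup'.to_le hRP
    have hlt : D.subgroupOf R < ⊤ := by
      rw [lt_top_iff_ne_top]
      intro htop
      apply hRD
      intro a ha
      have h1 : (⟨a, ha⟩ : R) ∈ D.subgroupOf R := by rw [htop]; trivial
      exact Subgroup.mem_subgroupOf.mp h1
    haveI : Group.IsNilpotent R := hRp.isNilpotent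
    obtain ⟨r', hr'N, hr'D⟩ := SetLike.exists_of_lt
      (Group.normalizerCondition_of_isNilpotent (G := R) (D.subgroupOf R) hlt)
    have hrD : (r' : G) ∉ D := fun hh => hr'D (Subgroup.mem_subgroupOf.mpr hh)
    have hrN : (r' : G) ∈ N := by
      rw [hN, Subgroup.mem_normalizer_iff]
      intro d
      constructor
      · intro hd
        have h1 := (Subgroup.mem_normalizer_iff.mp hr'N) ⟨d, hDR hd⟩
        exact Subgroup.mem_subgroupOf.mp (h1.mp (Subgroup.mem_subgroupOf.mpr hd))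
      · intro hd
        have hdR : (r' : G) * d * (r' : G)⁻¹ ∈ R := hDR hd
        have h1 := (Subgroup.mem_normalizer_iff.mp hr'N) (r'⁻¹ * ⟨_, hdR⟩ * r')
        have h2 : r' * (r'⁻¹ * ⟨_, hdR⟩ * r') * r'⁻¹ = (⟨_, hdR⟩ : R) := by group
        rw [h2] at h1
        have h3 := Subgroup.mem_subgroupOf.mp (h1.mpr (Subgroup.mem_subgroupOf.mpr hd))
        have h4 : ((r'⁻¹ * ⟨_, hdR⟩ * r' : R) : G) = d := by
          show (r' : G)⁻¹ * ((r' : G) * d * (r' : G)⁻¹) * (r' : G) = d
          group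
        rwa [h4] at h3
    have hrP : (r' : G) ∈ (P : Subgroup G) := hRP r'.2
    have hu : (⟨(r' : G), hrN⟩ : N) ∈ P₁ := by
      rw [hP₁def]
      exact Subgroup.mem_subgroupOf.mpr hrP
    have hu' : x⁻¹ * (⟨(r' : G), hrN⟩ : N) * x ∈ P₁ := by
      rw [hP₁def, Subgroup.mem_subgroupOf]
      have hr2 : (r' : G) ∈ (P : Subgroup G).map (MulAut.conj (x : G)).toMonoidHom :=
        (hRdef.le r'.2).2
      obtain ⟨q, hq, hqr⟩ := Subgroup.mem_map.mp hr2
      show (x : G)⁻¹ * (r' : G) * (x : G) ∈ (P : Subgroup G)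
      have e : (x : G)⁻¹ * (r' : G) * (x : G) = q := by
        rw [← hqr]
        show (x : G)⁻¹ * ((x : G) * q * (x : G)⁻¹) * (x : G) = q
        group
      rw [e]
      exact hq
    have hcomm := hxP _ hu hu'
    have hcomm' : (r' : G) * (x : G) = (x : G) * (r' : G) := congrArg Subtype.val hcomm
    have hS := hmax (D ⊔ Subgroup.zpowers (r' : G))
      (P.isPGroup'.to_le (sup_le hDP (by rw [Subgroup.zpowers_le]; exact hrP)))
      (sup_le hDx (by
        rw [Subgroup.zpowers_le, Subgroup.mem_centralizer_singleton_iff]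
        exact hcomm')) le_sup_left
    apply hrD
    rw [← hS]
    exact (le_sup_right : Subgroup.zpowers (r' : G) ≤ D ⊔ Subgroup.zpowers (r' : G))
      (Subgroup.mem_zpowers _)

end Cfsg.Agent.Helper7
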