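import Mathlib
import Cfsg.Agent.Helper7.SecondMain

/-!
# Külshammer's formula for the principal block idempotent (helper7)

* `li_sum_of_perm`: orbit counting for a permutation of `p`-power order.
* `vrot`, `vrotPerm`: rotation of vectors.
* `cpow_eq_vsum`: the `m`-fold convolution power as a sum over `m`-tuples.
* `li_vsum_sub`: a rotation-invariant sum over `p^n`-tuples is congruent to the sum over the
  constant tuples.
* `li_sum_pow_sub`: the Frobenius congruence `(∑ a)^(p^n) ≡ ∑ a^(p^n)`.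
* `li_cpow_pow_sub`: `z^{*m}(h^m) ≡ (∑_{c^m = 1} z(hc))^m` for a class function `z`, `m = p^n`.
-/

set_option autoImplicit false

namespace Cfsg.Agent.Helper7

open Cfsg Cfsg.Agent.Helper25 Cfsg.Agent.Helper2

universe u

variable {G : Type u} [Group G] {p : ℕ} {M : Ideal AlgInt}

theorem li_sum_of_perm {Ω : Type*} [Fintype Ω] (hM : IsPModular p M) (σ : Equiv.Perm Ω) (n : ℕ)
    (hσ : σ ^ (p ^ n) = 1) (φ : Ω → ℂ) (hinv : ∀ z, φ (σ z) = φ z)
    (hlr : ∀ z, MemLocalRing M (φ z)) (hfix : ∀ z, σ z = z → φ z = 0) :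
    MemLocalIdeal M (∑ z, φ z) := by
  classical
  haveI : Fact p.Prime := ⟨hM.1⟩
  have hP : IsPGroup p (Subgroup.zpowers σ) := by
    intro q
    refine ⟨n, ?_⟩
    obtain ⟨k, hk⟩ := Subgroup.mem_zpowers_iff.mp q.2
    apply Subtype.ext
    rw [Subgroup.coe_pow, ← hk, ← zpow_natCast, ← zpow_mul, mul_comm, zpow_mul, zpow_natCast, hσ,
      one_zpow]
    rfl
  let S : Subgroup (Equiv.Perm Ω) :=
    { carrier := {q | ∀ z, φ (q z) = φ z}
      mul_mem' := fun {a b} ha hb z => by rw [Equiv.Perm.mul_apply, ha, hb]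
      one_mem' := fun z => rfl
      inv_mem' := fun {a} ha z => by
        have := ha (a⁻¹ z)
        rw [show a (a⁻¹ z) = z from a.apply_symm_apply z] at this
        exact this.symm }
  have hS : Subgroup.zpowers σ ≤ S := (Subgroup.zpowers_le).mpr hinv
  apply li_sum_of_pgroup_action hM hP φ _ hlr _
  · intro q z
    exact hS q.2 z
  · intro z hz
    exact hfix z (hz ⟨σ, Subgroup.mem_zpowers σ⟩)

/-- Rotation of a vector. -/
def vrot {α : Type*} {m : ℕ} (v : List.Vector α m) (k : ℕ) : List.Vector α m :=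
  ⟨v.1.rotate k, (v.1.length_rotate k).trans v.2⟩

theorem vrot_zero {α : Type*} {m : ℕ} (v : List.Vector α m) : vrot v 0 = v :=
  Subtype.ext v.1.rotate_zero

theorem vrot_vrot {α : Type*} {m : ℕ} (v : List.Vector α m) (j k : ℕ) :
    vrot (vrot v j) k = vrot v (j + k) :=
  Subtype.ext (v.1.rotate_rotate j k)

theorem vrot_length {α : Type*} {m : ℕ} (v : List.Vector α m) : vrot v m = v :=
  Subtype.ext ((congr_arg _ v.2.symm).trans v.1.rotate_length)

/-- Rotation by one as a permutation of the vectors of length `m > 0`. -/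
def vrotPerm (α : Type*) (m : ℕ) (hm : 0 < m) : Equiv.Perm (List.Vector α m) where
  toFun v := vrot v 1
  invFun v := vrot v (m - 1)
  left_inv v := by
    show vrot (vrot v 1) (m - 1) = v
    rw [vrot_vrot, (by omega : 1 + (m - 1) = m), vrot_length]
  right_inv v := by
    show vrot (vrot v (m - 1)) 1 = v
    rw [vrot_vrot, (by omega : m - 1 + 1 = m), vrot_length]

theorem vrotPerm_apply {α : Type*} {m : ℕ} (hm : 0 < m) (v : List.Vector α m) :
    vrotPerm α m hm v = vrot v 1 := rfl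

theorem vrotPerm_pow {α : Type*} {m : ℕ} (hm : 0 < m) (k : ℕ) (v : List.Vector α m) :
    (vrotPerm α m hm ^ k) v = vrot v k := by
  induction k generalizing v with
  | zero => rw [pow_zero, vrot_zero]; rfl
  | succ k ih =>
    rw [pow_succ, Equiv.Perm.mul_apply, ih, vrotPerm_apply, vrot_vrot, add_comm]

theorem vrotPerm_pow_self {α : Type*} {m : ℕ} (hm : 0 < m) : vrotPerm α m hm ^ m = 1 :=
  Equiv.ext fun v => by rw [vrotPerm_pow, vrot_length]; rfl

/-- Prepending an element, as an equivalence. -/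
def vconsEquiv (α : Type*) (m : ℕ) : α × List.Vector α m ≃ List.Vector α (m + 1) where
  toFun xv := xv.1 ::ᵥ xv.2
  invFun w := (w.head, w.tail)
  left_inv xv := by simp
  right_inv w := by simp

theorem sum_vector_succ {α : Type*} [Fintype α] (m : ℕ) (F : List.Vector α (m + 1) → ℂ) :
    ∑ w, F w = ∑ x : α, ∑ v : List.Vector α m, F (x ::ᵥ v) := by
  rw [← Fintype.sum_prod_type']
  exact (Fintype.sum_equiv (vconsEquiv α m) _ _ (fun _ => rfl)).symm

theorem sum_vector_zero {α : Type*} [Fintype α] (F : List.Vector α 0 → ℂ) :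
    ∑ w, F w = F List.Vector.nil := by
  rw [Fintype.sum_eq_single List.Vector.nil (fun v hv => absurd v.eq_nil hv)]

/-- The `m`-fold convolution power as a sum over `m`-tuples. -/
theorem cpow_eq_vsum [Fintype G] (f e : G → ℂ) (m : ℕ) (g : G) :
    cpow f e m g = ∑ v : List.Vector G m, (v.toList.map f).prod * e (v.toList.prod⁻¹ * g) := by
  induction m generalizing g with
  | zero =>
    rw [sum_vector_zero]
    simp [cpow]
  | succ m ih =>
    rw [sum_vector_succ]
    show conv f (cpow f e m) g = _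
    unfold conv
    apply Finset.sum_congr rfl
    intro x _
    rw [ih, Finset.mul_sum]
    apply Finset.sum_congr rfl
    intro v _
    rw [List.Vector.toList_cons, List.map_cons, List.prod_cons, List.prod_cons, mul_inv_rev,
      mul_assoc, mul_assoc]

theorem sum_pow_eq_vsum {α : Type*} [Fintype α] (a : α → ℂ) (m : ℕ) :
    (∑ c, a c) ^ m = ∑ v : List.Vector α m, (v.toList.map a).prod := by
  induction m with
  | zero =>
    rw [sum_vector_zero]
    simp
  | succ m ih =>
    rw [sum_vector_succ, pow_succ', ih, Finset.sum_mul]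
    apply Finset.sum_congr rfl
    intro x _
    rw [Finset.mul_sum]
    apply Finset.sum_congr rfl
    intro v _
    rw [List.Vector.toList_cons, List.map_cons, List.prod_cons]

/-- The constant vector. -/
def vconst {α : Type*} (m : ℕ) (c : α) : List.Vector α m :=
  ⟨List.replicate m c, List.length_replicate⟩

theorem vconst_toList {α : Type*} (m : ℕ) (c : α) : (vconst m c).toList = List.replicate m c := rfl

theorem vrot_one_eq_self_iff {α : Type*} [Nonempty α] {m : ℕ} (v : List.Vector α m) :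
    vrot v 1 = v ↔ ∃ c, v = vconst m c := by
  constructor
  · intro h
    have h1 : v.1.rotate 1 = v.1 := congrArg Subtype.val h
    obtain ⟨c, hc⟩ := List.rotate_one_eq_self_iff_eq_replicate.mp h1
    refine ⟨c, Subtype.ext ?_⟩
    rw [hc, v.2]
    rfl
  · rintro ⟨c, rfl⟩
    apply Subtype.ext
    show (List.replicate m c).rotate 1 = List.replicate m c
    exact List.rotate_replicate c m 1

theorem vconst_injective {α : Type*} {m : ℕ} (hm : 0 < m) :
    Function.Injective (vconst (α := α) m) := by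
  intro c d h
  have h1 : List.replicate m c = List.replicate m d := congrArg Subtype.val h
  obtain ⟨k, rfl⟩ : ∃ k, m = k + 1 := ⟨m - 1, by omega⟩
  rw [List.replicate_succ, List.replicate_succ] at h1
  exact (List.cons.inj h1).1

/-- A rotation-invariant sum over `p^n`-tuples is congruent to the sum over the constant
tuples. -/
theorem li_vsum_sub {α : Type*} [Fintype α] [Nonempty α] (hM : IsPModular p M) (n : ℕ)
    (φ : List.Vector α (p ^ n) → ℂ) (hinv : ∀ v, φ (vrot v 1) = φ v)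
    (hlr : ∀ v, MemLocalRing M (φ v)) :
    MemLocalIdeal M (∑ v, φ v - ∑ c, φ (vconst (p ^ n) c)) := by
  classical
  have hm : 0 < p ^ n := pow_pos hM.1.pos n
  have h1 : ∑ c, φ (vconst (p ^ n) c)
      = ∑ v : List.Vector α (p ^ n), if vrot v 1 = v then φ v else 0 := by
    rw [← Finset.sum_filter]
    have h2 : (Finset.univ.filter fun v : List.Vector α (p ^ n) => vrot v 1 = v)
        = Finset.univ.image (vconst (p ^ n)) := by
      ext v
      rw [Finset.mem_filter, Finset.mem_image]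
      constructor
      · rintro ⟨-, h⟩
        obtain ⟨c, hc⟩ := (vrot_one_eq_self_iff v).mp h
        exact ⟨c, Finset.mem_univ _, hc.symm⟩
      · rintro ⟨c, -, rfl⟩
        exact ⟨Finset.mem_univ _, (vrot_one_eq_self_iff _).mpr ⟨c, rfl⟩⟩
    rw [h2, Finset.sum_image (fun c _ d _ h => vconst_injective hm h)]
  rw [h1, ← Finset.sum_sub_distrib]
  apply li_sum_of_perm hM (vrotPerm α (p ^ n) hm) n (vrotPerm_pow_self hm)
  · intro v
    rw [vrotPerm_apply, hinv]
    by_cases h : vrot v 1 = v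
    · rw [if_pos h, if_pos (by rw [h, h])]
    · rw [if_neg h, if_neg (show ¬ vrot (vrot v 1) 1 = vrot v 1 from
        fun h' => h ((vrotPerm α (p ^ n) hm).injective h'))]
  · intro v
    split_ifs
    · rw [sub_self]; exact lr_zero hM
    · rw [sub_zero]; exact hlr v
  · intro v hv
    rw [vrotPerm_apply] at hv
    rw [if_pos hv, sub_self]

/-- The Frobenius congruence. -/
theorem li_sum_pow_sub {α : Type*} [Fintype α] [Nonempty α] (hM : IsPModular p M) (n : ℕ)
    (a : α → ℂ) (ha : ∀ c, MemLocalRing M (a c)) :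
    MemLocalIdeal M ((∑ c, a c) ^ (p ^ n) - ∑ c, a c ^ (p ^ n)) := by
  rw [sum_pow_eq_vsum]
  have h1 := li_vsum_sub hM n (fun v : List.Vector α (p ^ n) => (v.toList.map a).prod)
    (fun v => by
      show ((v.1.rotate 1).map a).prod = (v.1.map a).prod
      rw [List.map_rotate]
      exact (List.rotate_perm _ 1).prod_eq)
    (fun v => by
      show MemLocalRing M (v.toList.map a).prod
      generalize v.toList = l
      induction l with
      | nil => simpa using lr_one hM
      | cons x t ih => rw [List.map_cons, List.prod_cons]; exact lr_mul hM (ha x) ih)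
  have h2 : ∀ c : α, ((vconst (p ^ n) c).toList.map a).prod = a c ^ (p ^ n) := by
    intro c
    rw [vconst_toList, List.map_replicate, List.prod_replicate]
  simp only [h2] at h1
  exact h1

theorem prod_rotate_one (l : List G) : ∃ x : G, (l.rotate 1).prod = x⁻¹ * l.prod * x := by
  cases l with
  | nil => exact ⟨1, by simp⟩
  | cons a t =>
    refine ⟨a, ?_⟩
    rw [List.rotate_cons_succ, List.rotate_zero, List.prod_append, List.prod_singleton,
      List.prod_cons]
    group

open Classical in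
/-- `f^{*m}(1) ≡ (∑_{c^m = 1} f(c))^m` for `m = p^n`. -/
theorem li_cpow_one_sub [Fintype G] (hM : IsPModular p M) (n : ℕ) (f : G → ℂ)
    (hf : ∀ c, MemLocalRing M (f c)) :
    MemLocalIdeal M (cpow f (dlt G) (p ^ n) 1
      - (∑ c : G, if c ^ (p ^ n) = 1 then f c else 0) ^ (p ^ n)) := by
  classical
  rw [cpow_eq_vsum]
  have hwlr : ∀ l : List G, MemLocalRing M (l.map f).prod := by
    intro l
    induction l with
    | nil => simpa using lr_one hM
    | cons x t ih => rw [List.map_cons, List.prod_cons]; exact lr_mul hM (hf x) ih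
  have h1 := li_vsum_sub hM n
    (fun v : List.Vector G (p ^ n) => (v.toList.map f).prod * dlt G (v.toList.prod⁻¹ * 1))
    (fun v => by
      show ((v.1.rotate 1).map f).prod * dlt G ((v.1.rotate 1).prod⁻¹ * 1)
        = (v.1.map f).prod * dlt G (v.1.prod⁻¹ * 1)
      obtain ⟨x, hx⟩ := prod_rotate_one v.1
      rw [List.map_rotate, (List.rotate_perm _ 1).prod_eq, hx]
      congr 1
      have e1 : (x⁻¹ * v.1.prod * x)⁻¹ * 1 = x⁻¹ * (v.1.prod⁻¹ * 1) * x⁻¹⁻¹ := by group
      rw [e1, dlt_conj])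
    (fun v => lr_mul hM (hwlr _) (dlt_lr hM _))
  have h2 : ∀ c : G, ((vconst (p ^ n) c).toList.map f).prod
      * dlt G ((vconst (p ^ n) c).toList.prod⁻¹ * 1)
      = (if c ^ (p ^ n) = 1 then f c else 0) ^ (p ^ n) := by
    intro c
    rw [vconst_toList, List.map_replicate, List.prod_replicate, List.prod_replicate, mul_one]
    by_cases hc : c ^ (p ^ n) = 1
    · rw [if_pos hc, hc, inv_one, dlt_one, mul_one]
    · rw [if_neg hc, dlt_ne (fun h => hc (inv_eq_one.mp h)), mul_zero,
        zero_pow (pow_pos hM.1.pos n).ne']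
  simp only [h2] at h1
  have h3 := li_sum_pow_sub hM n (fun c : G => if c ^ (p ^ n) = 1 then f c else 0)
    (fun c => by
      beta_reduce
      split_ifs
      · exact hf c
      · exact lr_zero hM)
  have h4 := li_sub hM h1 h3
  have e : (∑ v : List.Vector G (p ^ n), (v.toList.map f).prod * dlt G (v.toList.prod⁻¹ * 1))
      - (∑ c : G, if c ^ (p ^ n) = 1 then f c else 0) ^ (p ^ n)
      = (∑ v : List.Vector G (p ^ n), (v.toList.map f).prod * dlt G (v.toList.prod⁻¹ * 1)
          - ∑ c : G, (if c ^ (p ^ n) = 1 then f c else 0) ^ (p ^ n))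
        - ((∑ c : G, if c ^ (p ^ n) = 1 then f c else 0) ^ (p ^ n)
          - ∑ c : G, (if c ^ (p ^ n) = 1 then f c else 0) ^ (p ^ n)) := by ring
  rw [e]
  exact h4

/-- Translation: `(h⁻¹ z)^{*m} = h^{-m} z^{*m}` for a class function `z`. -/
theorem cpow_translate [Fintype G] (z e : G → ℂ) (hz : ∀ x t : G, z (t * x * t⁻¹) = z x)
    (h : G) (m : ℕ) (g : G) :
    cpow (fun x => z (h * x)) e m g = cpow z e m (h ^ m * g) := by
  induction m generalizing g with
  | zero => rw [pow_zero, one_mul]; rfl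
  | succ m ih =>
    show conv (fun x => z (h * x)) (cpow (fun x => z (h * x)) e m) g
      = conv z (cpow z e m) (h ^ (m + 1) * g)
    unfold conv
    apply Fintype.sum_equiv ((Equiv.mulLeft h).trans (MulAut.conj (h ^ m)).toEquiv)
    intro x
    have e1 : ((Equiv.mulLeft h).trans (MulAut.conj (h ^ m)).toEquiv) x
        = h ^ m * (h * x) * (h ^ m)⁻¹ := rfl
    rw [e1, hz, ih]
    congr 2
    rw [pow_succ]
    group

open Classical in
/-- `z^{*m}(h^m) ≡ (∑_{c^m = 1} z(hc))^m` for a class function `z` and `m = p^n`. -/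
theorem li_cpow_pow_sub [Fintype G] (hM : IsPModular p M) (n : ℕ) (z : G → ℂ)
    (hz : ∀ x t : G, z (t * x * t⁻¹) = z x) (hzlr : ∀ x, MemLocalRing M (z x)) (h : G) :
    MemLocalIdeal M (cpow z (dlt G) (p ^ n) (h ^ (p ^ n))
      - (∑ c : G, if c ^ (p ^ n) = 1 then z (h * c) else 0) ^ (p ^ n)) := by
  have h1 := li_cpow_one_sub hM n (fun x => z (h * x)) (fun c => hzlr _)
  rw [cpow_translate z (dlt G) hz h (p ^ n) 1, mul_one] at h1
  exact h1

theorem conv_dlt [Fintype G] (f : G → ℂ) : conv f (dlt G) = f := by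
  classical
  funext g
  unfold conv
  rw [Finset.sum_eq_single g]
  · rw [inv_mul_cancel, dlt_one, mul_one]
  · intro x _ hx
    rw [dlt_ne, mul_zero]
    intro h
    apply hx
    have h1 := inv_mul_eq_one.mp h
    exact h1
  · intro h
    exact absurd (Finset.mem_univ g) h

theorem cpow_dlt_idem [Fintype G] (e : G → ℂ) (he : conv e e = e) (m : ℕ) :
    cpow e (dlt G) (m + 1) = e := by
  induction m with
  | zero =>
    show conv e (dlt G) = e
    exact conv_dlt e
  | succ m ih =>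
    show conv e (cpow e (dlt G) (m + 1)) = e
    rw [ih, he]

theorem li_cpow_add [Fintype G] (hM : IsPModular p M) (y e : G → ℂ)
    (hy : ∀ x, MemLocalRing M (y x)) (n : ℕ) (h : ∀ x, MemLocalIdeal M (cpow y e n x)) (k : ℕ) :
    ∀ x, MemLocalIdeal M (cpow y e (n + k) x) := by
  induction k with
  | zero => exact h
  | succ k ih => exact fun x => li_conv_right hM hy ih x

theorem li_pow_sub_pow (hM : IsPModular p M) {a b : ℂ} (ha : MemLocalRing M a)
    (hb : MemLocalRing M b) (h : MemLocalIdeal M (a - b)) (k : ℕ) :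
    MemLocalIdeal M (a ^ k - b ^ k) := by
  induction k with
  | zero => simpa using li_zero hM
  | succ k ih =>
    have e : a ^ (k + 1) - b ^ (k + 1) = a * (a ^ k - b ^ k) + (a - b) * b ^ k := by ring
    rw [e]
    exact li_add hM (lr_mul_li hM ha ih) (li_mul_lr hM h (lr_pow hM hb k))

/-- Fermat's little theorem for fractions with denominator prime to `p`. -/
theorem li_fermat (hM : IsPModular p M) (a b : ℕ) (hb : ¬ p ∣ b) (n : ℕ) :
    MemLocalIdeal M (((a : ℂ) / b) ^ (p ^ n) - (a : ℂ) / b) := by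
  haveI : Fact p.Prime := ⟨hM.1⟩
  have hb0 : (b : ℂ) ≠ 0 := by
    have : b ≠ 0 := by
      rintro rfl
      exact hb (dvd_zero p)
    exact_mod_cast this
  obtain ⟨t, ht⟩ : (p : ℤ) ∣ (a : ℤ) ^ (p ^ n) * b - a * (b : ℤ) ^ (p ^ n) := by
    rw [← ZMod.intCast_zmod_eq_zero_iff_dvd]
    push_cast
    rw [ZMod.pow_card_pow, ZMod.pow_card_pow]
    ring
  have e : ((a : ℂ) / b) ^ (p ^ n) - (a : ℂ) / b
      = ((p : ℂ) * (t : ℂ)) * ((b ^ (p ^ n + 1) : ℕ) : ℂ)⁻¹ := by
    have h1 : ((a : ℂ)) ^ (p ^ n) * b - a * (b : ℂ) ^ (p ^ n) = (p : ℂ) * t := by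
      exact_mod_cast congrArg (Int.cast : ℤ → ℂ) ht
    rw [← h1, div_pow]
    push_cast
    field_simp
    ring
  rw [e]
  apply li_mul_lr hM (li_mul_lr hM (li_prime hM) (lr_intCast hM t))
  have h2 : ¬ p ∣ b ^ (p ^ n + 1) := fun h => hb (hM.1.dvd_of_dvd_pow h)
  exact lr_natCast_inv hM h2

/-- **Külshammer's formula** for the coefficients of the principal block idempotent. -/
theorem kulshammer [Finite G] (hM : IsPModular p M) (g : G) (hg : ¬ p ∣ orderOf g) :
    MemLocalIdeal M (blockCoeff (principalBlock M G) g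
      - (Nat.card {xy : G × G // (∃ k : ℕ, orderOf xy.1 = p ^ k) ∧ ¬ p ∣ orderOf xy.2
          ∧ xy.1 * xy.2 = g} : ℂ) / (Nat.card {y : G // ¬ p ∣ orderOf y} : ℂ)) := by
  classical
  haveI := Fintype.ofFinite G
  have hp : p.Prime := hM.1
  haveI : Fact p.Prime := ⟨hp⟩
  obtain ⟨e₀, he₀⟩ : ∃ e₀ : G → ℂ, e₀ = blockCoeff (principalBlock M G) := ⟨_, rfl⟩
  have he₀cl : ∀ x t : G, e₀ (t * x * t⁻¹) = e₀ x := by
    rw [he₀]
    exact blockCoeff_conj _
  have he₀lr : ∀ x, MemLocalRing M (e₀ x) := by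
    rw [he₀]
    exact blockCoeff_lr hM isPBlock_principalBlock
  have he₀id : conv e₀ e₀ = e₀ := by
    rw [he₀]
    exact conv_blockCoeff_self _
  have he₀ω : ∀ ψ : IrrCharacter G, omega e₀ ψ = if ψ ∈ principalBlock M G then 1 else 0 := by
    intro ψ
    rw [he₀]
    exact omega_blockCoeff _ ψ
  obtain ⟨R, hR⟩ : ∃ R : ℕ, R = Nat.card {y : G // ¬ p ∣ orderOf y} := ⟨_, rfl⟩
  obtain ⟨N, hN⟩ : ∃ N : ℕ, N = Nat.card {xy : G × G // (∃ k : ℕ, orderOf xy.1 = p ^ k)
      ∧ ¬ p ∣ orderOf xy.2 ∧ xy.1 * xy.2 = g} := ⟨_, rfl⟩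
  rw [← he₀, ← hR, ← hN]
  have hRp : ¬ p ∣ R := by
    rw [hR]
    exact card_pRegular_not_dvd p G
  have hR0 : (R : ℂ) ≠ 0 := by
    have : R ≠ 0 := by
      rintro h
      exact hRp (h ▸ dvd_zero p)
    exact_mod_cast this
  -- the radical element
  obtain ⟨r, hr⟩ : ∃ r : G → ℂ, r = fun x => regInd p G x - (R : ℂ) * e₀ x := ⟨_, rfl⟩
  have hrcl : ∀ x t : G, r (t * x * t⁻¹) = r x := by
    intro x t
    rw [hr]
    show regInd p G (t * x * t⁻¹) - (R : ℂ) * e₀ (t * x * t⁻¹) = _
    rw [regInd_conj, he₀cl]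
  have hrlr : ∀ x, MemLocalRing M (r x) := by
    intro x
    rw [hr]
    exact lr_sub hM (regInd_lr hM x) (lr_mul hM (lr_natCast hM R) (he₀lr x))
  have hωr : ∀ ψ : IrrCharacter G, MemLocalIdeal M (omega r ψ) := by
    intro ψ
    have e1 : omega r ψ = omega (regInd p G) ψ - (R : ℂ) * omega e₀ ψ := by
      rw [hr, omega_sub, omega_smul]
    rw [e1, he₀ω]
    by_cases hψ : ψ ∈ principalBlock M G
    · rw [if_pos hψ, mul_one, hR]
      exact li_omega_regInd_sub hM hψ
    · rw [if_neg hψ, mul_zero, sub_zero, omega_regInd_of_not_mem hM hψ]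
      exact li_zero hM
  obtain ⟨N₀, hN₀⟩ := li_cpow_of_omega hM r (dlt G) hrcl hrlr dlt_conj (dlt_lr hM)
    (fun ψ => Or.inr (hωr ψ))
  -- choice of the exponent
  have ho0 : 0 < orderOf g := orderOf_pos g
  obtain ⟨n, hn⟩ : ∃ n : ℕ, n = Nat.totient (orderOf g) * (Nat.card G + N₀) := ⟨_, rfl⟩
  have hφ : 0 < Nat.totient (orderOf g) := Nat.totient_pos.mpr ho0
  have hn1 : Nat.card G + N₀ ≤ n := by
    rw [hn]
    exact Nat.le_mul_of_pos_left _ hφ
  have hmn : n < p ^ n := Nat.lt_pow_self hp.one_lt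
  have hm0 : 0 < p ^ n := pow_pos hp.pos n
  have hgm : g ^ (p ^ n) = g := by
    have h1 : p ^ n ≡ 1 [MOD orderOf g] := by
      have h2 : p ^ Nat.totient (orderOf g) ≡ 1 [MOD orderOf g] :=
        Nat.ModEq.pow_totient ((Nat.Prime.coprime_iff_not_dvd hp).mpr hg)
      have h3 := h2.pow (Nat.card G + N₀)
      rwa [← pow_mul, one_pow, ← hn] at h3
    have h4 : g ^ (p ^ n) = g ^ 1 := pow_eq_pow_iff_modEq.mpr h1
    rwa [pow_one] at h4
  have hpel : ∀ c : G, c ^ (p ^ n) = 1 ↔ ∃ k : ℕ, orderOf c = p ^ k := by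
    intro c
    constructor
    · intro h
      obtain ⟨k, -, hk⟩ := (Nat.dvd_prime_pow hp).mp (orderOf_dvd_of_pow_eq_one h)
      exact ⟨k, hk⟩
    · rintro ⟨k, hk⟩
      apply orderOf_dvd_iff_pow_eq_one.mp
      rw [hk]
      apply pow_dvd_pow
      have h1 : p ^ k ≤ Nat.card G := by
        rw [← hk]
        exact Nat.le_of_dvd Nat.card_pos (orderOf_dvd_natCard c)
      have h2 : k < p ^ k := Nat.lt_pow_self hp.one_lt
      omega
  obtain ⟨A, hA⟩ : ∃ A : (G → ℂ) → ℂ,
      A = fun z => ∑ c : G, if c ^ (p ^ n) = 1 then z (g * c) else 0 := ⟨_, rfl⟩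
  have hAlr : ∀ z : G → ℂ, (∀ x, MemLocalRing M (z x)) → MemLocalRing M (A z) := by
    intro z hz
    rw [hA]
    apply lr_sum hM
    intro c _
    split_ifs
    · exact hz _
    · exact lr_zero hM
  -- `A r` lies in the local ideal
  have hAr : MemLocalIdeal M (A r) := by
    have h1 := li_cpow_pow_sub hM n r hrcl hrlr g
    have h2 : ∀ x, MemLocalIdeal M (cpow r (dlt G) (p ^ n) x) := by
      have h3 := li_cpow_add hM r (dlt G) hrlr N₀ hN₀ (p ^ n - N₀)
      rwa [show N₀ + (p ^ n - N₀) = p ^ n by omega] at h3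
    have h4 := li_sub hM (h2 (g ^ (p ^ n))) h1
    rw [sub_sub_cancel] at h4
    apply li_of_pow hM (hAlr r hrlr) (p ^ n)
    rw [hA]
    exact h4
  have hAe : MemLocalIdeal M (e₀ g - A e₀ ^ (p ^ n)) := by
    have h1 := li_cpow_pow_sub hM n e₀ he₀cl he₀lr g
    have h2 : cpow e₀ (dlt G) (p ^ n) = e₀ := by
      obtain ⟨m', hm'⟩ : ∃ m', p ^ n = m' + 1 := ⟨p ^ n - 1, by omega⟩
      rw [hm']
      exact cpow_dlt_idem e₀ he₀id m'
    rw [h2, hgm] at h1
    rw [hA]
    exact h1
  have hAs : A (regInd p G) = (N : ℂ) := by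
    have h1 : ∀ c : G, (if c ^ (p ^ n) = 1 then regInd p G (g * c) else 0)
        = if (c ^ (p ^ n) = 1 ∧ ¬ p ∣ orderOf (g * c)) then (1 : ℂ) else 0 := by
      intro c
      by_cases hc : c ^ (p ^ n) = 1
      · by_cases hgc : p ∣ orderOf (g * c)
        · rw [if_pos hc, regInd_sing hgc, if_neg (fun h => h.2 hgc)]
        · rw [if_pos hc, regInd_reg hgc, if_pos ⟨hc, hgc⟩]
      · rw [if_neg hc, if_neg (fun h => hc h.1)]
    rw [hA]
    show ∑ c : G, (if c ^ (p ^ n) = 1 then regInd p G (g * c) else 0) = (N : ℂ)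
    rw [Finset.sum_congr rfl (fun c _ => h1 c), Finset.sum_boole]
    congr 1
    rw [← Fintype.card_subtype, ← Nat.card_eq_fintype_card, hN]
    have hto : ∀ c : G, c ^ (p ^ n) = 1 ∧ ¬ p ∣ orderOf (g * c) →
        (∃ k : ℕ, orderOf c⁻¹ = p ^ k) ∧ ¬ p ∣ orderOf (c * g) ∧ c⁻¹ * (c * g) = g := by
      rintro c ⟨hc, hgc⟩
      refine ⟨?_, ?_, by group⟩
      · rw [orderOf_inv]
        exact (hpel c).mp hc
      · have e1 : c * g = c * (g * c) * c⁻¹ := by group
        rw [e1, orderOf_conj_eq]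
        exact hgc
    have hfrom : ∀ xy : G × G, ((∃ k : ℕ, orderOf xy.1 = p ^ k) ∧ ¬ p ∣ orderOf xy.2
        ∧ xy.1 * xy.2 = g) → (xy.1⁻¹) ^ (p ^ n) = 1 ∧ ¬ p ∣ orderOf (g * xy.1⁻¹) := by
      rintro ⟨x, y⟩ ⟨hx, hy, hxy⟩
      dsimp only at hx hy hxy ⊢
      refine ⟨?_, ?_⟩
      · rw [inv_pow, (hpel x).mpr hx, inv_one]
      · have e1 : g * x⁻¹ = x * y * x⁻¹ := by rw [← hxy]
        rw [e1, orderOf_conj_eq]
        exact hy
    apply Nat.card_congr
    exact
      { toFun := fun c => ⟨(c.1⁻¹, c.1 * g), hto c.1 c.2⟩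
        invFun := fun xy => ⟨xy.1.1⁻¹, hfrom xy.1 xy.2⟩
        left_inv := fun c => Subtype.ext (inv_inv c.1)
        right_inv := fun xy => by
          obtain ⟨⟨x, y⟩, hx, hy, hxy⟩ := xy
          apply Subtype.ext
          show (x⁻¹⁻¹, x⁻¹ * g) = (x, y)
          dsimp only at hxy
          rw [inv_inv, ← hxy, inv_mul_cancel_left] }
  have hArel : A r = (N : ℂ) - (R : ℂ) * A e₀ := by
    rw [← hAs, hA, hr]
    show ∑ c : G, (if c ^ (p ^ n) = 1 then regInd p G (g * c) - (R : ℂ) * e₀ (g * c) else 0)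
      = (∑ c : G, if c ^ (p ^ n) = 1 then regInd p G (g * c) else 0)
        - (R : ℂ) * ∑ c : G, if c ^ (p ^ n) = 1 then e₀ (g * c) else 0
    rw [Finset.mul_sum, ← Finset.sum_sub_distrib]
    apply Finset.sum_congr rfl
    intro c _
    split_ifs
    · rfl
    · ring
  have hAeq : MemLocalIdeal M (A e₀ - (N : ℂ) / R) := by
    have e1 : A e₀ - (N : ℂ) / R = - (A r * (R : ℂ)⁻¹) := by
      rw [hArel]
      field_simp
      ring
    rw [e1]
    exact li_neg (li_mul_lr hM hAr (lr_natCast_inv hM hRp))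
  have hqlr : MemLocalRing M ((N : ℂ) / R) := by
    rw [div_eq_mul_inv]
    exact lr_mul hM (lr_natCast hM N) (lr_natCast_inv hM hRp)
  have h1 := li_pow_sub_pow hM (hAlr e₀ he₀lr) hqlr hAeq (p ^ n)
  have h2 := li_fermat hM N R hRp n
  have h3 := li_add hM (li_add hM hAe h1) h2
  have e : e₀ g - (N : ℂ) / R = (e₀ g - A e₀ ^ (p ^ n))
      + (A e₀ ^ (p ^ n) - ((N : ℂ) / R) ^ (p ^ n))
      + (((N : ℂ) / R) ^ (p ^ n) - (N : ℂ) / R) := by ring
  rw [e]
  exact h3

end Cfsg.Agent.Helper7
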