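import Mathlib
import Cfsg.Agent.Helper25.BlockNilp

/-!
# Nilpotent class sums (helper7)

* `classSum_nilpotent_zmod`: over `ZMod p`, the class sum of an element not centralizing a normal
  `p`-subgroup is nilpotent (extracted from helper25's `li_centralChar_of_not_mem_centralizer`).
* `classSum_nilpotent`: the same over any field of characteristic `p`.
-/

set_option autoImplicit false

namespace Cfsg.Agent.Helper7

open Cfsg Cfsg.Agent.Helper25

universe u

open Classical in
theorem classSum_nilpotent_zmod {G : Type u} [Group G] [Fintype G] {p : ℕ} [Fact p.Prime]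
    (P : Subgroup G) [P.Normal] (hP : IsPGroup p P) {g₀ : G}
    (hg₀ : g₀ ∉ Subgroup.centralizer (P : Set G)) :
    ∃ k : ℕ, (∑ g : G, MonoidAlgebra.single g
      (((if IsConj g₀ g then 1 else 0 : ℤ)) : ZMod p) : MonoidAlgebra (ZMod p) G) ^ k = 0 := by
  apply exists_pow_eq_zero_of_kill P hP
  intro v hv
  have hinv : ∀ y ∈ P, ∀ g : G, v.coeff (y * g) = v.coeff g := by
    intro y hy g
    have h1 := congrArg (fun w : MonoidAlgebra (ZMod p) G => w.coeff g) (hv y⁻¹ (P.inv_mem hy))
    simp only [MonoidAlgebra.coeff_single_mul_apply, inv_inv, one_mul] at h1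
    exact h1
  apply MonoidAlgebra.coeff_injective
  ext h
  rw [Finset.mul_sum, MonoidAlgebra.coeff_sum, Finsupp.finsetSum_apply,
    MonoidAlgebra.coeff_zero, Finsupp.zero_apply]
  have h2 : ∀ g : G, (v * MonoidAlgebra.single g
      (((if IsConj g₀ g then 1 else 0 : ℤ)) : ZMod p)).coeff h =
      if IsConj g₀ g then v.coeff (h * g⁻¹) else 0 := by
    intro g
    rw [MonoidAlgebra.coeff_mul_single_apply]
    split_ifs <;> simp
  rw [Finset.sum_congr rfl (fun g _ => h2 g), ← Finset.sum_filter]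
  apply sum_eq_zero_of_conj_invariant P hP
  · intro y hy x hx
    rw [Finset.mem_filter] at hx ⊢
    exact ⟨Finset.mem_univ _, hx.2.trans (isConj_iff.mpr ⟨y, rfl⟩)⟩
  · intro x hx
    by_contra hcon
    push Not at hcon
    apply hg₀
    obtain ⟨c, hc⟩ := isConj_iff.mp (Finset.mem_filter.mp hx).2
    rw [Subgroup.mem_centralizer_iff]
    intro y hy
    have hy' : c * y * c⁻¹ ∈ P := Subgroup.Normal.conj_mem inferInstance y hy c
    have h3 := hcon (c * y * c⁻¹) hy'
    have h4 : x = c * g₀ * c⁻¹ := hc.symm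
    rw [h4] at h3
    have h5 : c * y * c⁻¹ * (c * g₀ * c⁻¹) * (c * y * c⁻¹)⁻¹ = c * (y * g₀ * y⁻¹) * c⁻¹ := by
      group
    rw [h5] at h3
    have h6 : y * g₀ * y⁻¹ = g₀ := by
      have := congrArg (fun t => c⁻¹ * t * c) h3
      simpa [mul_assoc] using this
    calc y * g₀ = y * g₀ * y⁻¹ * y := by group
      _ = g₀ * y := by rw [h6]
  · intro y hy x _
    have e : h * (y * x * y⁻¹)⁻¹ =
        (h * y * h⁻¹) * ((h * x⁻¹ * y⁻¹ * (h * x⁻¹)⁻¹) * (h * x⁻¹)) := by group
    rw [e, hinv _ (Subgroup.Normal.conj_mem inferInstance y hy h),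
      hinv _ (Subgroup.Normal.conj_mem inferInstance y⁻¹ (P.inv_mem hy) (h * x⁻¹))]

/-- Over any field of characteristic `p`, the class sum of an element not centralizing a normal
`p`-subgroup is nilpotent. -/
theorem classSum_nilpotent {G : Type u} [Group G] [Finite G] {p : ℕ} [Fact p.Prime]
    (F : Type*) [Field F] [CharP F p]
    (P : Subgroup G) [P.Normal] (hP : IsPGroup p P) {g₀ : G}
    (hg₀ : g₀ ∉ Subgroup.centralizer (P : Set G)) :
    IsNilpotent (∑ᶠ x ∈ ConjClasses.carrier (ConjClasses.mk g₀),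
      MonoidAlgebra.single x (1 : F) : MonoidAlgebra F G) := by
  classical
  haveI := Fintype.ofFinite G
  obtain ⟨k, hk⟩ := classSum_nilpotent_zmod P hP hg₀
  refine ⟨k, ?_⟩
  have h1 : (∑ᶠ x ∈ ConjClasses.carrier (ConjClasses.mk g₀),
      MonoidAlgebra.single x (1 : F) : MonoidAlgebra F G)
      = MonoidAlgebra.mapRingHom G (ZMod.castHom (dvd_refl p) F)
          (∑ x : G, MonoidAlgebra.single x (((if IsConj g₀ x then 1 else 0 : ℤ)) : ZMod p)) := by
    rw [map_sum]
    simp only [MonoidAlgebra.mapRingHom_single]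
    have hS : ConjClasses.carrier (ConjClasses.mk g₀) = {x : G | IsConj g₀ x} := rfl
    rw [hS, finsum_mem_def, finsum_eq_sum_of_fintype]
    apply Finset.sum_congr rfl
    intro x _
    rw [Set.indicator_apply]
    by_cases hx : IsConj g₀ x
    · have hx' : x ∈ {x : G | IsConj g₀ x} := hx
      rw [if_pos hx', if_pos hx]
      simp
    · have hx' : x ∉ {x : G | IsConj g₀ x} := hx
      rw [if_neg hx', if_neg hx]
      simp
  rw [h1, ← map_pow, hk, map_zero]

end Cfsg.Agent.Helper7
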