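import Mathlib
import Cfsg.Agent.S4486
import Cfsg.Agent.Helper24.NormSyl
import Cfsg.Agent.Helper25.CharClass

set_option autoImplicit false

namespace Cfsg.Agent.S4485P

open Cfsg

/-- The key step of S4485 in the shape needed by the induction wrapper: for a faithful character of
small degree, either a proper normal subgroup contains the Sylow subgroup or the group is abelian. -/
theorem h7_key.{u} (p : ℕ) (hp : p.Prime) :
    ∀ (G : Type u) [Group G] [Finite G] (P : Sylow p G), p ∣ Nat.card G →
      (∀ x ∈ (P : Subgroup G), x ≠ 1 →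
        Subgroup.centralizer ({x} : Set G) = Subgroup.centralizer ((P : Subgroup G) : Set G)) →
      ∀ n : ℕ, Nat.card P = p ^ n → ∀ χ : G → ℂ, Cfsg.IsCharacter G χ →
      (∀ g : G, χ g = χ 1 → g = 1) → Cfsg.charDegree χ ^ 2 + 1 < p ^ n →
      (∃ K : Subgroup G, K.Normal ∧ K ≠ ⊤ ∧ (P : Subgroup G) ≤ K) ∨
        (∀ g h : G, g * h = h * g) := by
  intro G _ _ P hpG hstar n hn χ hχ hfaith hdeg
  classical
  by_cases hK : ∃ K : Subgroup G, K.Normal ∧ K ≠ ⊤ ∧ (P : Subgroup G) ≤ K
  · exact Or.inl hK
  · right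
    intro g h
    letI : Fintype G := Fintype.ofFinite G
    have hχ1 : χ 1 = (charDegree χ : ℂ) := Helper25.char_one_eq_degree hχ
    have key : χ (g * h * g⁻¹ * h⁻¹) = χ 1 := by
      apply Helper24.ns_char_ker hχ
      intro ψ hψ
      have hle : charDegree (ψ : G → ℂ) ≤ charDegree χ := Helper24.ns_deg_le hχ _ hχ1 ψ hψ
      by_cases h1 : (ψ : G → ℂ) = fun _ => 1
      · rw [h1]
      · have hdeg' : charDegree (ψ : G → ℂ) ^ 2 + 1 < p ^ n :=
          lt_of_le_of_lt (Nat.add_le_add_right (Nat.pow_le_pow_left hle 2) 1) hdeg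
        rcases Cfsg.Agent.S4486.result p hp hpG P hstar n hn ψ h1 hdeg' with hk | ⟨_, hd1⟩
        · exact absurd hk hK
        · have hψ1 : (ψ : G → ℂ) 1 = 1 := by
            rw [Helper25.irr_one_eq_degree, hd1, Nat.cast_one]
          have hc : g * h * g⁻¹ * h⁻¹ ∈ _root_.commutator G := by
            rw [_root_.commutator_def]
            exact Subgroup.commutator_mem_commutator (Subgroup.mem_top g) (Subgroup.mem_top h)
          rw [Helper25.irr_linear_commutator ψ hψ1 hc, hψ1]
    have h2 := hfaith _ key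
    calc g * h = (g * h * g⁻¹ * h⁻¹) * (h * g) := by group
      _ = h * g := by rw [h2, one_mul]

end Cfsg.Agent.S4485P
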